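import Cfsg.Agent.Splitting.Main

/-!
# Brauer's theorem on splitting fields
-/

set_option autoImplicit false
set_option linter.unusedSectionVars false
set_option linter.style.haveILetI false

namespace CfsgLib.Splitting

open Cfsg CfsgLib.CharBasics Module

universe u

variable {G : Type u} [Group G] [Fintype G] (K : Subfield ℂ)

theorem exists_real_add {n n' : ℕ} (σ : Representation K G (Fin n → K)) (τ : Representation K G (Fin n' → K)) :
    ∃ (d : ℕ) (ρ : Representation K G (Fin d → K)), chr K ρ = chr K σ + chr K τ := by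
  classical
  let P : Representation K G ((Fin n → K) × (Fin n' → K)) :=
    { toFun := fun g => (σ g).prodMap (τ g)
      map_one' := by simp [Module.End.one_eq_id]
      map_mul' := fun g h => by simp only [map_mul]; exact (LinearMap.prodMap_mul _ _ _ _).symm }
  set e := (Module.finBasis K ((Fin n → K) × (Fin n' → K))).equivFun
  refine ⟨_, (e.conjAlgEquiv K).toAlgHom.toMonoidHom.comp P, funext fun g => ?_⟩
  show ((LinearMap.trace K _ (e.conj ((σ g).prodMap (τ g))) : K) : ℂ) = _
  rw [LinearMap.trace_conj', LinearMap.trace_prodMap']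
  rfl

theorem exists_realisation (hroots : ∀ z : ℂ, z ^ Monoid.exponent G = 1 → z ∈ K) {n : ℕ}
    (ρ : Representation ℂ G (Fin n → ℂ)) :
    ∃ σ : Representation K G (Fin n → K), (complexify K σ).character = ρ.character := by
  classical
  have hclos : BrauerInd.monomialSpan G ≤ AddSubgroup.closure (simpleChars K G) := by
    refine (AddSubgroup.closure_le _).2 ?_
    rintro f ⟨E, l, -, rfl⟩
    refine induced_mem K E l fun e => hroots _ ?_
    have h1 : e ^ Monoid.exponent G = 1 := Subtype.ext (by simp [Monoid.pow_exponent_eq_one])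
    rw [← Units.val_pow_eq_pow_val, ← map_pow, h1, map_one, Units.val_one]
  have hirr : ∀ χ : G → ℂ, IsIrrCharacter G χ → ∃ (d : ℕ) (σ : Representation K G (Fin d → K)), χ = chr K σ :=
    fun χ hχ => by
      obtain ⟨d, σ, -, -, h⟩ := mem_simpleChars K hχ (hclos (BrauerInd.isCharacter_mem_monomialSpan
        (isCharacter_of_irr hχ)))
      exact ⟨d, σ, h⟩
  obtain ⟨r, ψ, hψ, hsum⟩ := exists_decomp (χ := ρ.character) ⟨n, ρ, rfl⟩
  have hall : ∀ s : Finset (Fin r), ∃ (d : ℕ) (σ : Representation K G (Fin d → K)), ∑ i ∈ s, ψ i = chr K σ := by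
    intro s
    induction s using Finset.induction with
    | empty =>
      refine ⟨0, 1, funext fun g => ?_⟩
      show (∑ i ∈ (∅ : Finset (Fin r)), ψ i) g = ((LinearMap.trace K (Fin 0 → K) 1 : K) : ℂ)
      simp
    | insert a s ha ih =>
      obtain ⟨d, σ, h⟩ := ih
      obtain ⟨d', τ, h'⟩ := hirr _ (hψ a)
      obtain ⟨d'', π, hπ⟩ := exists_real_add K τ σ
      exact ⟨d'', π, by rw [Finset.sum_insert ha, h, h', hπ]⟩
  obtain ⟨d, σ, h⟩ := hall Finset.univ
  have hc : (complexify K σ).character = ρ.character := by
    rw [character_complexify, ← h, hsum]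
  obtain rfl : d = n := by
    have h1 := congrFun hc 1
    rw [Representation.char_one, Representation.char_one, Module.finrank_fin_fun, Module.finrank_fin_fun] at h1
    exact_mod_cast h1
  exact ⟨σ, hc⟩

end CfsgLib.Splitting
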