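import Cfsg.Agent.BrauerInd.Induction
import Cfsg.Agent.SL2Char.Idem
import Cfsg.Agent.Clifford.CharEquiv
import Cfsg.Agent.Blocks.FongSwan.Induced

/-!
# Representations realised over a cyclotomic field
-/

set_option autoImplicit false
set_option linter.unusedSectionVars false
set_option linter.style.haveILetI false

namespace CfsgLib.Splitting

open Cfsg CfsgLib.CharBasics Module
open scoped ComplexConjugate

universe u

variable {G : Type u} [Group G] (K : Subfield ℂ)

/-- The complex character of a representation over the subfield. -/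
noncomputable def chr {V : Type*} [AddCommGroup V] [Module K V] (σ : Representation K G V) : G → ℂ :=
  fun g => (σ.character g : ℂ)

/-- The complexified matrices of a representation. -/
noncomputable def complexify {n : ℕ} (σ : Representation K G (Fin n → K)) : Representation ℂ G (Fin n → ℂ) :=
  FongSwan.toRep ((K.subtype.mapMatrix.toMonoidHom).comp
    (LinearMap.toMatrixAlgEquiv'.toRingEquiv.toRingHom.toMonoidHom.comp σ))

theorem toMatrix'_complexify {n : ℕ} (σ : Representation K G (Fin n → K)) (g : G) :
    LinearMap.toMatrix' (complexify K σ g) = (LinearMap.toMatrix' (σ g)).map K.subtype := by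
  rw [complexify, FongSwan.toRep_apply, LinearMap.toMatrix'_toLin']
  rfl

theorem character_complexify {n : ℕ} (σ : Representation K G (Fin n → K)) :
    (complexify K σ).character = chr K σ := by
  funext g
  show LinearMap.trace ℂ _ (complexify K σ g) = ((LinearMap.trace K _ (σ g) : K) : ℂ)
  rw [LinearMap.trace_eq_matrix_trace ℂ (Pi.basisFun ℂ (Fin n)), LinearMap.toMatrix_eq_toMatrix',
    toMatrix'_complexify, LinearMap.trace_eq_matrix_trace K (Pi.basisFun K (Fin n)), LinearMap.toMatrix_eq_toMatrix']
  exact (map_sum K.subtype _ _).symm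

theorem trace_eq_add {V : Type*} [AddCommGroup V] [Module K V] [Module.Finite K V] (W : Submodule K V)
    (e : V →ₗ[K] V) (he : W ≤ W.comap e) :
    LinearMap.trace K V e = LinearMap.trace K W (e.restrict he) + LinearMap.trace K (V ⧸ W) (W.mapQ W e he) := by
  classical
  have h : ∀ {U : Type _} [AddCommGroup U] [Module K U] [Module.Finite K U] (f : U →ₗ[K] U),
      LinearMap.trace K U f = - f.charpoly.nextCoeff := fun {U} _ _ _ f => by
    rw [LinearMap.trace_eq_matrix_trace K (Module.Free.chooseBasis K U), Matrix.trace_eq_neg_charpoly_nextCoeff,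
      LinearMap.charpoly_toMatrix]
  rw [h, h, h, BrauerChar.charpoly_eq_mul W e he,
    Polynomial.Monic.nextCoeff_mul (LinearMap.charpoly_monic _) (LinearMap.charpoly_monic _), neg_add]

/-- The characters of simple representations over the subfield. -/
def simpleChars (G : Type u) [Group G] : Set (G → ℂ) :=
  {f | ∃ (n : ℕ) (σ : Representation K G (Fin n → K)), n ≠ 0 ∧
    (∀ W : Submodule K (Fin n → K), (∀ g, W ≤ W.comap (σ g)) → W = ⊥ ∨ W = ⊤) ∧ f = chr K σ}

theorem chr_mem_closure : ∀ (d : ℕ) (V : Type) [AddCommGroup V] [Module K V] [Module.Finite K V]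
    (σ : Representation K G V), finrank K V = d → chr K σ ∈ AddSubgroup.closure (simpleChars K G) := by
  intro d
  induction d using Nat.strong_induction_on with
  | _ d ih =>
  intro V _ _ _ σ hd
  classical
  by_cases hd0 : d = 0
  · subst hd0
    haveI := Module.finrank_zero_iff.1 hd
    convert zero_mem (AddSubgroup.closure (simpleChars K G)) using 1
    funext g
    show ((LinearMap.trace K V (σ g) : K) : ℂ) = 0
    rw [show σ g = 0 from LinearMap.ext fun v => Subsingleton.elim _ _, map_zero]
    rfl
  by_cases hirr : ∀ W : Submodule K V, (∀ g, W ≤ W.comap (σ g)) → W = ⊥ ∨ W = ⊤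
  · set e := (Module.finBasis K V).equivFun with he
    let τ : Representation K G (Fin (finrank K V) → K) :=
      (e.conjAlgEquiv K).toAlgHom.toMonoidHom.comp σ
    refine AddSubgroup.subset_closure ⟨_, τ, hd ▸ hd0, fun W hW => ?_, ?_⟩
    · rcases hirr (W.comap e.toLinearMap) (fun g v hv => by
        have := hW g hv
        show e (σ g v) ∈ W
        have hτ : τ g (e v) = e (σ g v) := by
          show e (σ g (e.symm (e v))) = _
          rw [e.symm_apply_apply]
        rw [← hτ]
        exact this) with h | h
      · left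
        rw [← Submodule.map_comap_eq_of_surjective (f := e.toLinearMap) e.surjective W, h, Submodule.map_bot]
      · right
        rw [← Submodule.map_comap_eq_of_surjective (f := e.toLinearMap) e.surjective W, h, Submodule.map_top,
          LinearEquiv.range]
    · funext g
      show ((LinearMap.trace K V (σ g) : K) : ℂ) = ((LinearMap.trace K _ (e.conj (σ g)) : K) : ℂ)
      rw [LinearMap.trace_conj']
  · push Not at hirr
    obtain ⟨W, hW, hWb, hWt⟩ := hirr
    let σW : Representation K G W :=
      { toFun := fun g => (σ g).restrict (hW g)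
        map_one' := LinearMap.ext fun w => Subtype.ext (by simp)
        map_mul' := fun g h => LinearMap.ext fun w => Subtype.ext (by simp) }
    let σQ : Representation K G (V ⧸ W) :=
      { toFun := fun g => W.mapQ W (σ g) (hW g)
        map_one' := by ext; simp
        map_mul' := fun g h => by ext; simp }
    have h1 : finrank K W < d := hd ▸ Submodule.finrank_lt hWt
    have h2 : finrank K (V ⧸ W) < d := by
      have := Submodule.finrank_quotient_add_finrank W
      have h3 : finrank K W ≠ 0 := fun h => hWb (Submodule.finrank_eq_zero.1 h)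
      omega
    have : chr K σ = chr K σW + chr K σQ := funext fun g => by
      show ((LinearMap.trace K V (σ g) : K) : ℂ) = _
      rw [trace_eq_add K W (σ g) (hW g)]
      rfl
    rw [this]
    exact add_mem (ih _ h1 W σW rfl) (ih _ h2 (V ⧸ W) σQ rfl)

variable [Fintype G]

theorem simple_inner {f f' : G → ℂ} (hf : f ∈ simpleChars K G) (hf' : f' ∈ simpleChars K G) :
    ∃ m : ℕ, classInner f f' = m ∧ (f ≠ f' → m = 0) ∧ (f = f' → m ≠ 0) := by
  classical
  obtain ⟨n, σ, hn, hσ, rfl⟩ := hf
  obtain ⟨n', τ, hn', hτ, rfl⟩ := hf'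
  haveI : NeZero (Nat.card G : K) := ⟨Nat.cast_ne_zero.2 Nat.card_pos.ne'⟩
  haveI : Invertible (Nat.card G : K) := invertibleOfNonzero (NeZero.ne _)
  have hc : ∀ g, conj (chr K τ g) = ((τ.character g⁻¹ : K) : ℂ) := fun g => by
    rw [← character_complexify]
    rw [← apply_inv (isCharacter_rep (complexify K τ)), character_complexify]
    rfl
  have key : classInner (chr K σ) (chr K τ) = ((finrank K (τ.IntertwiningMap σ) : ℕ) : ℂ) := by
    have h := congrArg K.subtype (Representation.card_inv_mul_sum_char_mul_char_eq_finrank τ σ)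
    rw [map_natCast, map_mul, map_inv₀, map_natCast, map_sum] at h
    rw [← h, classInner]
    congr 1
    refine Finset.sum_congr rfl fun g _ => ?_
    rw [hc, map_mul]
    rfl
  refine ⟨_, key, fun hne => ?_, fun he h0 => ?_⟩
  · by_contra h0
    haveI := Module.nontrivial_of_finrank_pos (R := K) (Nat.pos_of_ne_zero h0)
    obtain ⟨F, hF⟩ := exists_ne (0 : τ.IntertwiningMap σ)
    set T : (Fin n' → K) →ₗ[K] (Fin n → K) := F.toLinearMap with hT
    have hTi : ∀ g v, T (τ g v) = σ g (T v) := fun g v => LinearMap.congr_fun (F.isIntertwining' g) v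
    have hT0 : T ≠ 0 := fun h => hF (Representation.IntertwiningMap.ext h)
    have hker : LinearMap.ker T = ⊥ := (hτ _ fun g v hv => by
      rw [Submodule.mem_comap, LinearMap.mem_ker, hTi, LinearMap.mem_ker.1 hv, map_zero]).resolve_right
      fun h => hT0 (LinearMap.ker_eq_top.1 h)
    have hrange : LinearMap.range T = ⊤ := (hσ _ fun g v hv => by
      obtain ⟨w, rfl⟩ := hv
      exact ⟨τ g w, hTi g w⟩).resolve_left fun h => hT0 (LinearMap.range_eq_bot.1 h)
    let E := LinearEquiv.ofBijective T ⟨LinearMap.ker_eq_bot.1 hker, LinearMap.range_eq_top.1 hrange⟩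
    refine hne (funext fun g => ?_)
    show ((LinearMap.trace K _ (σ g) : K) : ℂ) = ((LinearMap.trace K _ (τ g) : K) : ℂ)
    rw [← LinearMap.trace_conj' (τ g) E]
    congr 2
    refine LinearMap.ext fun v => ?_
    obtain ⟨w, rfl⟩ := E.surjective v
    rw [LinearEquiv.conj_apply_apply, E.symm_apply_apply]
    exact (hTi g w).symm
  · have h1 : classInner (chr K σ) (chr K σ) = 0 := by
      conv_lhs => arg 2; rw [he]
      rw [key, h0, Nat.cast_zero]
    have h2 : chr K σ 1 = 0 := by
      rw [classInner, mul_eq_zero] at h1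
      have h3 := h1.resolve_left (inv_ne_zero (Nat.cast_ne_zero.2 Nat.card_pos.ne'))
      simp only [Complex.mul_conj] at h3
      rw [← Complex.ofReal_sum, Complex.ofReal_eq_zero,
        Finset.sum_eq_zero_iff_of_nonneg fun g _ => Complex.normSq_nonneg _] at h3
      exact Complex.normSq_eq_zero.1 (h3 1 (Finset.mem_univ 1))
    rw [← character_complexify, Representation.char_one, Module.finrank_fin_fun, Nat.cast_eq_zero] at h2
    exact hn h2

/-- An irreducible character in the span of the simple characters is one of them. -/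
theorem mem_simpleChars {χ : G → ℂ} (hχ : IsIrrCharacter G χ)
    (hmem : χ ∈ AddSubgroup.closure (simpleChars K G)) : χ ∈ simpleChars K G := by
  classical
  have hchar : ∀ a ∈ simpleChars K G, IsCharacter G a := by
    rintro a ⟨n, σ, -, -, rfl⟩
    exact ⟨n, complexify K σ, character_complexify K σ⟩
  obtain ⟨a, ha, hne⟩ : ∃ a ∈ simpleChars K G, classInner a χ ≠ 0 := by
    by_contra hno
    push Not at hno
    have h0 : ∀ f ∈ AddSubgroup.closure (simpleChars K G), classInner f χ = 0 := fun f hf => by
      induction hf using AddSubgroup.closure_induction with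
      | mem a ha => exact hno a ha
      | zero => simp [classInner]
      | add x y _ _ hx hy => rw [classInner_add_left, hx, hy, add_zero]
      | neg x _ hx => rw [show -x = (-1 : ℂ) • x by simp, classInner_smul_left, hx, mul_zero]
    exact one_ne_zero ((classInner_self hχ).symm.trans (h0 χ hmem))
  obtain ⟨k, hk⟩ := classInner_character_nat (hchar a ha) ⟨χ, hχ⟩
  change classInner a χ = k at hk
  obtain ⟨m, hm, -, hm0⟩ := simple_inner K ha ha
  have hdvd : ∀ f ∈ AddSubgroup.closure (simpleChars K G), ∃ z : ℤ, classInner f a = (z : ℂ) * m := fun f hf => by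
    induction hf using AddSubgroup.closure_induction with
    | mem b hb =>
      by_cases hba : b = a
      · exact ⟨1, by rw [hba, hm, Int.cast_one, one_mul]⟩
      · obtain ⟨j, hj, hj0, -⟩ := simple_inner K hb ha
        exact ⟨0, by rw [hj, hj0 hba]; simp⟩
    | zero => exact ⟨0, by simp [classInner]⟩
    | add x y _ _ hx hy =>
      obtain ⟨z, hz⟩ := hx
      obtain ⟨w, hw⟩ := hy
      exact ⟨z + w, by rw [classInner_add_left, hz, hw]; push_cast; ring⟩
    | neg x _ hx =>
      obtain ⟨z, hz⟩ := hx
      exact ⟨-z, by rw [show -x = (-1 : ℂ) • x by simp, classInner_smul_left, hz]; push_cast; ring⟩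
  obtain ⟨z, hz⟩ := hdvd χ hmem
  have hk' : classInner χ a = k := by rw [classInner_comm, hk, Complex.conj_natCast]
  have hk0 : k ≠ 0 := fun h => hne (by rw [hk, h, Nat.cast_zero])
  have hzm : (k : ℤ) = z * m := by exact_mod_cast (hk'.symm.trans hz)
  have hmk : m ≤ k := by
    have : (m : ℤ) ∣ k := ⟨z, by rw [hzm]; ring⟩
    exact Nat.le_of_dvd (Nat.pos_of_ne_zero hk0) (Int.natCast_dvd_natCast.1 this)
  -- the norm of `a - k χ`
  have hD : classInner (a + (-(k : ℂ)) • χ) (a + (-(k : ℂ)) • χ) = ((m : ℝ) - (k : ℝ) ^ 2 : ℝ) := by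
    have hexp : ∀ f : G → ℂ, classInner f (a + (-(k : ℂ)) • χ) = classInner f a - k * classInner f χ := fun f => by
      rw [classInner_comm, classInner_add_left, classInner_smul_left, map_add, map_mul, map_neg, Complex.conj_natCast,
        ← classInner_comm, ← classInner_comm]
      ring
    rw [classInner_add_left, classInner_smul_left, hexp, hexp, hm, hk, hk', classInner_self hχ]
    push_cast
    ring
  have hN : (Nat.card G : ℂ) ≠ 0 := Nat.cast_ne_zero.2 Nat.card_pos.ne'
  have hsq : ∀ f : G → ℂ, classInner f f = (((Nat.card G : ℝ)⁻¹ * ∑ g : G, Complex.normSq (f g) : ℝ) : ℂ) := fun f => by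
    rw [classInner]
    simp only [Complex.mul_conj]
    push_cast
    rfl
  rw [hsq, Complex.ofReal_inj] at hD
  have hpos : 0 ≤ (Nat.card G : ℝ)⁻¹ * ∑ g : G, Complex.normSq ((a + (-(k : ℂ)) • χ) g) :=
    mul_nonneg (inv_nonneg.2 (Nat.cast_nonneg _)) (Finset.sum_nonneg fun g _ => Complex.normSq_nonneg _)
  have hk1 : k ^ 2 ≤ m := by exact_mod_cast (by linarith [hD ▸ hpos] : (k : ℝ) ^ 2 ≤ m)
  have hke : k = 1 := by nlinarith [Nat.pos_of_ne_zero hk0]
  have hme : m = 1 := le_antisymm (hmk.trans hke.le) (Nat.pos_of_ne_zero (hm0 rfl))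
  rw [show (m : ℝ) - (k : ℝ) ^ 2 = 0 by rw [hke, hme]; norm_num, mul_eq_zero] at hD
  have h3 := (Finset.sum_eq_zero_iff_of_nonneg fun g _ => Complex.normSq_nonneg _).1
    (hD.resolve_left (inv_ne_zero (Nat.cast_ne_zero.2 Nat.card_pos.ne')))
  suffices a = χ from this ▸ ha
  funext g
  have h4 := Complex.normSq_eq_zero.1 (h3 g (Finset.mem_univ g))
  simpa [hke, sub_eq_zero, ← sub_eq_add_neg] using h4

theorem induced_mem (E : Subgroup G) (l : E →* ℂˣ) (hl : ∀ e, (l e : ℂ) ∈ K) :
    indFun E (fun e => (l e : ℂ)) ∈ AddSubgroup.closure (simpleChars K G) := by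
  classical
  haveI : Fintype (G ⧸ E) := Fintype.ofFinite _
  let A : E →* Matrix Unit Unit K :=
    { toFun := fun e => Matrix.of fun _ _ => ⟨(l e : ℂ), hl e⟩
      map_one' := by ext a b; simp
      map_mul' := fun e e' => by ext a b; simp [Matrix.mul_apply] }
  let ρ : Representation K G ((G ⧸ E) × Unit → K) := FongSwan.toRep (FongSwan.indMat A)
  have hρ : indFun E (fun e => (l e : ℂ)) = chr K ρ := funext fun g => by
    rw [SL2Char.indFun_eq_sum_reps E _ (fun x y => by simp) (fun i : G ⧸ E => i.out) (by
      simp only [QuotientGroup.out_eq']; exact Function.bijective_id) g]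
    show _ = ((LinearMap.trace K _ (Matrix.toLin' (FongSwan.indMat A g)) : K) : ℂ)
    rw [Matrix.trace_toLin'_eq, Matrix.trace, Fintype.sum_prod_type]
    simp only [Matrix.diag, Fintype.univ_punit, Finset.sum_singleton]
    rw [show ((∑ i : G ⧸ E, FongSwan.indMat A g (i, ()) (i, ()) : K) : ℂ) =
      ∑ i : G ⧸ E, ((FongSwan.indMat A g (i, ()) (i, ()) : K) : ℂ) from map_sum K.subtype _ _]
    refine Finset.sum_congr rfl fun i _ => ?_
    simp only [FongSwan.indMat, FongSwan.indFun, MonoidHom.coe_mk, OneHom.coe_mk, Matrix.of_apply]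
    by_cases h : i.out⁻¹ * g * i.out ∈ E
    · rw [IndFun.extendByZero_mem _ h, dif_pos h]
      rfl
    · rw [IndFun.extendByZero_not_mem _ h, dif_neg h]
      rfl
  rw [hρ]
  set e := LinearEquiv.funCongrLeft K K (Fintype.equivFin ((G ⧸ E) × Unit)).symm
  let ρ' : Representation K G (Fin (Fintype.card ((G ⧸ E) × Unit)) → K) :=
    (e.conjAlgEquiv K).toAlgHom.toMonoidHom.comp ρ
  have : chr K ρ = chr K ρ' := funext fun g => by
    show _ = ((LinearMap.trace K _ (e.conj (ρ g)) : K) : ℂ)
    rw [LinearMap.trace_conj']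
    rfl
  rw [this]
  exact chr_mem_closure K _ _ ρ' rfl

end CfsgLib.Splitting
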